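import Cfsg.Agent.Helper28.TCD
import Cfsg.Agent.Helper28.SP4.Pres

/-! Todd-Coxeter certificate data for SP4R2 (generated). -/

set_option autoImplicit false

namespace Cfsg.Agent.Helper28.SP4R2

noncomputable def colE0 : List ℕ := [0x1241ccc7a0e2e27c185b8a5dadb243d068d33a301e82bcb993b0781]

noncomputable def colJ0 : List ℕ := [0x20423d020004d02041b5020423102000450200041020422502041a1020003502000310204195020421102000250200021020420502041850200015020001102000010000000]

noncomputable def colE1 : List ℕ := [0xa04b8d68334d6548e8ba851f09a52bccac712a64ea1b0fc8362742]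

noncomputable def colJ1 : List ℕ := [0x20433d02000b902000b502000cd02000ad0000000000000002000a10000000020009902000950000000020008d0000000000000002000850000000020008100000000000000]

noncomputable def colE2 : List ℕ := [0x15e4447922c1a6aa994a507ceb39a6d2481768b10d48dc171b22f03]

noncomputable def colJ2 : List ℕ := [0x20013d0208339020014902001310000000020012902001250000000020011d00000000000000020011100000000200109020010500000000200101000000000000000000000]

noncomputable def colE3 : List ℕ := [0x0]

noncomputable def colJ3 : List ℕ := [0x0]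

noncomputable def colsE : List (List ℕ) := [colE0, colE1, colE2, colE3]

noncomputable def colsJ : List (List ℕ) := [colJ0, colJ1, colJ2, colJ3]

noncomputable def tcol : List ℕ := [0x93e2e8b64c8ae4a9262891e268964488e42906219022080000]

noncomputable def lvcol : List ℕ := [0x9ca307b9ac5a928398a418820]

noncomputable def colT0 : List ℕ := [0x94dee8c16a6b0e64a06229001]

noncomputable def colT1 : List ℕ := [0x839b35ca28798ac1a92138082]

noncomputable def colT2 : List ℕ := [0x7c64c9a9303b9a458828018a3]

noncomputable def colsT : List (List ℕ) := [colT0, colT1, colT2]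

noncomputable def ftcol : List ℕ := [0x278b85a4c159289228238984a44119088221200800000]

def pairs : List (ℕ × ℕ × ℕ) := [(0, 0, 1), (1, 1, 1), (2, 2, 1), (0, 1, 2), (0, 2, 2), (1, 2, 10)]

def extraL : List (List ℕ) := [[0, 2, 1, 2, 1, 2, 1, 2, 1, 2, 1]]

def subL : List (List ℕ) := []

/-- the relator words -/
def relL : List (List ℕ) := pairs.map (fun p => Cfsg.Agent.Helper28.pairWord p.1 p.2.1 p.2.2) ++ extraL

/-- the certificate data -/
noncomputable def D : Cfsg.Agent.Helper28.TCData :=
  Cfsg.Agent.Helper28.mkData 5 31 5 31 11 2047 28 268435455 10 1023 colsE colsJ tcol (relL ++ subL) 7 3 20 60 8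

/-- the name of a final coset -/
noncomputable def lv : ℕ → ℕ := fun i => Cfsg.Agent.Helper28.bent 5 31 5 31 lvcol i

/-- the final table -/
noncomputable def T : ℕ → ℕ → ℕ := fun k i => Cfsg.Agent.Helper28.bent 5 31 5 31 (Cfsg.Agent.Helper28.nthL colsT k) i

/-- tree of the final table: parent -/
noncomputable def ftp : ℕ → ℕ := fun i => Nat.land (Cfsg.Agent.Helper28.bent 5 31 9 511 ftcol i) 31

/-- tree of the final table: column -/
noncomputable def ftc : ℕ → ℕ := fun i => Nat.shiftRight (Cfsg.Agent.Helper28.bent 5 31 9 511 ftcol i) 5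

/-- the generators -/
def gen : ℕ → Cfsg.Agent.Helper28.SP4.R2.Gen
  | 0 => .a
  | 1 => .c
  | _ => .d

/-- the index of a generator -/
def code : Cfsg.Agent.Helper28.SP4.R2.Gen → ℕ
  | .a => 0
  | .c => 1
  | .d => 2

end Cfsg.Agent.Helper28.SP4R2
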